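import Cfsg.Prelude.Def_LieRecognition
import Mathlib

set_option autoImplicit false

namespace Cfsg.Agent.RankOne

open MulAction

/-- An element of a finite group of odd order is the power of its square. -/
theorem sq_pow_half {M : Type*} [Group M] [Finite M] {X : Subgroup M} (hodd : Odd (Nat.card X))
    {x : M} (hx : x ∈ X) : (x * x) ^ ((Nat.card X + 1) / 2) = x := by
  obtain ⟨m, hm⟩ := hodd
  have h1 : x ^ Nat.card X = 1 := by
    exact (orderOf_dvd_iff_pow_eq_one.1 (Subgroup.orderOf_dvd_natCard _ hx))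
  rw [← pow_two, ← pow_mul, show 2 * ((Nat.card X + 1) / 2) = Nat.card X + 1 by omega, pow_succ, h1,
    one_mul]

theorem eq_of_mul_self_eq {M : Type*} [Group M] [Finite M] {X : Subgroup M} (hodd : Odd (Nat.card X))
    {x y : M} (hx : x ∈ X) (hy : y ∈ X) (h : x * x = y * y) : x = y := by
  rw [← sq_pow_half hodd hx, ← sq_pow_half hodd hy, h]

/-- If the product of two involutions has odd order, they are conjugate. -/
theorem conj_of_odd {M : Type*} [Group M] {s u : M} (hs : s * s = 1) (hu : u * u = 1)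
    (h : Odd (orderOf (s * u))) : ∃ g : M, g * s * g⁻¹ = u := by
  obtain ⟨k, hk⟩ := h
  refine ⟨(s * u) ^ k, ?_⟩
  have hinv : (s * u)⁻¹ = u * s := by
    rw [mul_inv_rev, inv_eq_of_mul_eq_one_right hs, inv_eq_of_mul_eq_one_right hu]
  have hcomm : ∀ j : ℕ, s * ((s * u) ^ j)⁻¹ = (s * u) ^ j * s := by
    intro j
    induction j with
    | zero => simp
    | succ j ih =>
      have e : (s * u) ^ (j + 1) = (s * u) ^ j * (s * u) := pow_succ _ _
      rw [e, mul_inv_rev, ← mul_assoc, hinv, mul_assoc]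
      have : s * (u * s) = (s * u) * s := (mul_assoc s u s).symm
      rw [← mul_assoc, this, mul_assoc, ih, ← mul_assoc, ← mul_assoc]
      congr 1
      rw [mul_assoc _ s u]
      exact ((Commute.refl _).pow_right j).eq
  rw [mul_assoc, hcomm, ← mul_assoc, ← pow_add]
  have h1 : (s * u) ^ (k + k) = (s * u)⁻¹ := by
    refine eq_inv_of_mul_eq_one_left ?_
    rw [← pow_succ, show k + k + 1 = orderOf (s * u) by omega, pow_orderOf_eq_one]
  rw [h1, hinv, mul_assoc, hs, mul_one]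

variable {G Ω : Type*} [Group G] [MulAction G Ω] {a : Ω} {t : G} {Q : Subgroup G}
variable (hS : Cfsg.IsRankOneSetup G Ω a t Q)

include hS

theorem t_inv : t⁻¹ = t := inv_eq_of_mul_eq_one_right hS.mul_self

theorem tt_smul (x : Ω) : t • t • x = x := by rw [smul_smul, hS.mul_self, one_smul]

theorem b_ne : t • a ≠ a := fun h => hS.not_mem h

theorem q_smul_a {q : G} (hq : q ∈ Q) : q • a = a := hS.le hq

/-- The only element of `Q` fixing `t • a` is `1`. -/
theorem q_eq_one {q : G} (hq : q ∈ Q) (h : q • t • a = t • a) : q = 1 := by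
  have : q ∈ Q ⊓ stabilizer G (t • a) := ⟨hq, h⟩
  rwa [hS.inf_eq_bot, Subgroup.mem_bot] at this

omit hS in
theorem mem_D {d : G} :
    d ∈ stabilizer G a ⊓ stabilizer G (t • a) ↔ d • a = a ∧ d • t • a = t • a := Iff.rfl

theorem exists_smul {c e : Ω} (hc : c ≠ a) (he : e ≠ a) : ∃ g : G, g • a = a ∧ g • c = e :=
  (MulAction.is_two_pretransitive_iff.1 hS.two_transitive) hc.symm he.symm

/-- `G_a = Q D`. -/
theorem decompose {h : G} (hh : h • a = a) :
    ∃ q ∈ Q, ∃ d ∈ stabilizer G a ⊓ stabilizer G (t • a), q * d = h := by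
  have h1 : stabilizer G a ⊓ stabilizer G (t • a) ≤ Subgroup.normalizer (Q : Set G) := by
    intro d hd
    rw [Subgroup.mem_normalizer_iff]
    intro x
    refine ⟨fun hx => hS.conj_mem d hd.1 x hx, fun hx => ?_⟩
    have := hS.conj_mem d⁻¹ ((stabilizer G a).inv_mem hd.1) _ hx
    simpa [mul_assoc] using this
  have h2 : h ∈ Q ⊔ (stabilizer G a ⊓ stabilizer G (t • a)) := by
    rw [hS.sup_eq]; exact hh
  rw [← SetLike.mem_coe, Subgroup.coe_mul_of_right_le_normalizer_left _ _ h1] at h2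
  obtain ⟨q, hq, d, hd, e⟩ := h2
  exact ⟨q, hq, d, hd, e⟩

/-- `Q` is transitive on the points other than `a`. -/
theorem exists_q {c : Ω} (hc : c ≠ a) : ∃ q ∈ Q, q • t • a = c := by
  obtain ⟨g, hg, hgc⟩ := exists_smul hS (b_ne hS) hc
  obtain ⟨q, hq, d, hd, rfl⟩ := decompose hS hg
  rw [mul_smul, (mem_D.1 hd).2] at hgc
  exact ⟨q, hq, hgc⟩

theorem q_inj {p q : G} (hp : p ∈ Q) (hq : q ∈ Q) (h : p • t • a = q • t • a) : p = q := by
  have : (q⁻¹ * p) • t • a = t • a := by rw [mul_smul, h, inv_smul_smul]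
  exact (inv_mul_eq_one.1 (q_eq_one hS (mul_mem (inv_mem hq) hp) this)).symm

theorem q_smul_ne {q : G} (hq : q ∈ Q) {c : Ω} (hc : c ≠ a) : q • c ≠ a := by
  intro h
  apply hc
  rw [← q_smul_a hS hq] at h
  exact smul_left_cancel q h

/-- A nontrivial element of `Q` fixes only `a`. -/
theorem fix_only {q : G} (hq : q ∈ Q) (hq1 : q ≠ 1) {c : Ω} (h : q • c = c) : c = a := by
  by_contra hc
  obtain ⟨p, hp, rfl⟩ := exists_q hS hc
  apply hq1
  have h1 : (p⁻¹ * q * p) • t • a = t • a := by rw [mul_smul, mul_smul, h, inv_smul_smul]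
  have h2 := q_eq_one hS (mul_mem (mul_mem (inv_mem hp) hq) hp) h1
  have : q = p * (p⁻¹ * q * p) * p⁻¹ := by group
  rw [this, h2]; group

theorem t_conj_D {d : G} (hd : d ∈ stabilizer G a ⊓ stabilizer G (t • a)) :
    t * d * t ∈ stabilizer G a ⊓ stabilizer G (t • a) := by
  obtain ⟨h1, h2⟩ := mem_D.1 hd
  refine mem_D.2 ⟨?_, ?_⟩
  · rw [mul_smul, mul_smul, h2, tt_smul hS]
  · rw [mul_smul, mul_smul, tt_smul hS, h1]

theorem conj_mem_D {q d : G} (hq : q ∈ Q) (hd : d ∈ stabilizer G a ⊓ stabilizer G (t • a)) :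
    d * q * d⁻¹ ∈ Q := hS.conj_mem d hd.1 q hq

theorem conj_mem_D' {q d : G} (hq : q ∈ Q) (hd : d ∈ stabilizer G a ⊓ stabilizer G (t • a)) :
    d⁻¹ * q * d ∈ Q := by
  have := hS.conj_mem d⁻¹ ((stabilizer G a).inv_mem hd.1) q hq
  simpa using this

/-- Uniqueness of the canonical form. -/
theorem form_inj {g g' h h' f f' : G} (hg : g ∈ Q) (hg' : g' ∈ Q)
    (hh : h ∈ stabilizer G a ⊓ stabilizer G (t • a)) (hh' : h' ∈ stabilizer G a ⊓ stabilizer G (t • a))
    (hf : f ∈ Q) (hf' : f' ∈ Q) (e : g * h * t * f = g' * h' * t * f') :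
    g = g' ∧ h = h' ∧ f = f' := by
  have key : ∀ {g h f : G}, g ∈ Q → h ∈ stabilizer G a ⊓ stabilizer G (t • a) → f ∈ Q →
      (g * h * t * f) • (f⁻¹ • t • a) = a := by
    intro g h f hg hh hf
    rw [mul_smul, smul_inv_smul, mul_smul, tt_smul hS, mul_smul, (mem_D.1 hh).1, q_smul_a hS hg]
  have hff : f = f' := by
    have h1 : (g * h * t * f) • (f⁻¹ • t • a) = (g * h * t * f) • (f'⁻¹ • t • a) := by
      rw [key hg hh hf]; rw [e, key hg' hh' hf']
    have h2 := q_inj hS (inv_mem hf) (inv_mem hf') (smul_left_cancel _ h1)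
    exact inv_injective h2
  subst hff
  have e1 : g * h = g' * h' := mul_right_cancel (mul_right_cancel e)
  have e2 : g'⁻¹ * g = h' * h⁻¹ := by
    rw [eq_mul_inv_iff_mul_eq, mul_assoc, e1, inv_mul_cancel_left]
  have h3 : g'⁻¹ * g = 1 := q_eq_one hS (mul_mem (inv_mem hg') hg) (by
    rw [e2]; exact (mem_D.1 (mul_mem hh' (inv_mem hh))).2)
  have h4 : g = g' := (inv_mul_eq_one.1 h3).symm
  exact ⟨h4, mul_left_cancel (h4 ▸ e1), rfl⟩

/-- Existence of the canonical form. -/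
theorem form_exists {g : G} (hg : g • a ≠ a) :
    ∃ p ∈ Q, ∃ h ∈ stabilizer G a ⊓ stabilizer G (t • a), ∃ f ∈ Q, g = p * h * t * f := by
  have h1 : g⁻¹ • a ≠ a := fun h => hg (by rw [inv_smul_eq_iff] at h; exact h.symm)
  obtain ⟨q, hq, hqa⟩ := exists_q hS h1
  have h2 : (g * q * t) • a = a := by rw [mul_smul, mul_smul, hqa, smul_inv_smul]
  obtain ⟨p, hp, d, hd, e⟩ := decompose hS h2
  refine ⟨p, hp, d, hd, q⁻¹, inv_mem hq, ?_⟩
  rw [e, mul_assoc (g * q), hS.mul_self, mul_one, mul_inv_cancel_right]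

theorem t_q_t_not_mem {q : G} (hq : q ∈ Q) (hq1 : q ≠ 1) : (t * q * t) • a ≠ a := by
  intro h
  apply hq1
  apply q_eq_one hS hq
  rw [mul_smul, mul_smul] at h
  have := congrArg (t • ·) h
  simpa [tt_smul hS] using this

/-- The `(H1)` rule. -/
theorem form_inv {x g h f : G} (hg : g ∈ Q) (hh : h ∈ stabilizer G a ⊓ stabilizer G (t • a))
    (hf : f ∈ Q) (e : t * x * t = g * h * t * f) {g' h' f' : G} (hg' : g' ∈ Q)
    (hh' : h' ∈ stabilizer G a ⊓ stabilizer G (t • a)) (hf' : f' ∈ Q)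
    (e' : t * x⁻¹ * t = g' * h' * t * f') :
    g' = f⁻¹ ∧ h' = t * h⁻¹ * t ∧ f' = g⁻¹ := by
  apply form_inj hS hg' (inv_mem hf) hh' (t_conj_D hS (inv_mem hh)) hf' (inv_mem hg)
  rw [← e']
  have h1 : (t * x * t)⁻¹ = (g * h * t * f)⁻¹ := by rw [e]
  simp only [mul_inv_rev, t_inv hS] at h1
  simp only [mul_assoc] at h1 ⊢
  rw [h1, ← mul_assoc t t, hS.mul_self, one_mul]

/-- The `(H3)` rule. -/
theorem form_conj {x g h f c : G} (hg : g ∈ Q) (hh : h ∈ stabilizer G a ⊓ stabilizer G (t • a))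
    (hf : f ∈ Q) (hc : c ∈ stabilizer G a ⊓ stabilizer G (t • a)) (e : t * x * t = g * h * t * f)
    {g' h' f' : G} (hg' : g' ∈ Q) (hh' : h' ∈ stabilizer G a ⊓ stabilizer G (t • a)) (hf' : f' ∈ Q)
    (e' : t * (c⁻¹ * x * c) * t = g' * h' * t * f') :
    g' = (t * c * t)⁻¹ * g * (t * c * t) ∧ h' = (t * c * t)⁻¹ * h * c ∧
      f' = (t * c * t)⁻¹ * f * (t * c * t) := by
  have hc' := t_conj_D hS hc
  apply form_inj hS hg' (conj_mem_D' hS hg hc') hh'
    (mul_mem (mul_mem (inv_mem hc') hh) hc) hf' (conj_mem_D' hS hf hc')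
  rw [← e']
  have e1 : t * (c⁻¹ * x * c) * t = (t * c * t)⁻¹ * (t * x * t) * (t * c * t) := by
    simp only [mul_inv_rev, t_inv hS, mul_assoc, ← mul_assoc t t, hS.mul_self, one_mul]
  have e2 : c * t * (t * c * t)⁻¹ = t := by
    simp only [mul_inv_rev, t_inv hS, mul_assoc, ← mul_assoc t t, hS.mul_self, one_mul]
    simp
  rw [e1, e]
  calc (t * c * t)⁻¹ * (g * h * t * f) * (t * c * t)
      = (t * c * t)⁻¹ * g * h * t * f * (t * c * t) := by group
    _ = (t * c * t)⁻¹ * g * h * (c * t * (t * c * t)⁻¹) * f * (t * c * t) := by rw [e2]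
    _ = _ := by group

variable [Finite G]

theorem finite_Ω : Finite Ω := by
  haveI : MulAction.IsPretransitive G Ω :=
    haveI := hS.two_transitive
    MulAction.isPretransitive_of_is_two_pretransitive
  exact Finite.of_surjective (fun g : G => g • a) (fun x => MulAction.exists_smul_eq G a x)

theorem card_D_odd_involution {d : G} (hd : d ∈ stabilizer G a ⊓ stabilizer G (t • a))
    (h : d * d = 1) : d = 1 :=
  eq_of_mul_self_eq hS.odd_card hd (one_mem _) (by rw [h, one_mul])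

/-- Involutions fixing `a` lie in `Q`. -/
theorem inv_mem_Q {s : G} (hs : s • a = a) (h : s * s = 1) : s ∈ Q := by
  obtain ⟨q, hq, d, hd, rfl⟩ := decompose hS hs
  have h2 : d * d = 1 := by
    apply q_eq_one hS ?_ (mem_D.1 (mul_mem hd hd)).2
    have e : d * d = (d * q * d⁻¹)⁻¹ * q⁻¹ * ((q * d) * (q * d)) := by group
    rw [e, h, mul_one]
    exact mul_mem (inv_mem (conj_mem_D hS hq hd)) (inv_mem hq)
  rw [card_D_odd_involution hS hd h2, mul_one]
  exact hq

theorem exists_involution : ∃ s ∈ Q, s ≠ 1 ∧ s * s = 1 := by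
  haveI : Fact (Nat.Prime 2) := ⟨Nat.prime_two⟩
  obtain ⟨s, hs⟩ := exists_prime_orderOf_dvd_card' (G := Q) 2 (even_iff_two_dvd.1 hS.even_card)
  refine ⟨s, s.2, ?_, ?_⟩
  · intro h
    have : s = 1 := Subtype.ext h
    rw [this, orderOf_one] at hs
    omega
  · have := pow_orderOf_eq_one s
    rw [hs, pow_two] at this
    simpa using congrArg Subtype.val this

theorem odd_prod {s u : G} (hs : s • a = a) (hs1 : s ≠ 1) (hs2 : s * s = 1) (hu : u • a ≠ a)
    (hu2 : u * u = 1) : Odd (orderOf (s * u)) := by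
  rw [← Nat.not_even_iff_odd]
  rintro ⟨k, hk⟩
  have hk0 : 0 < k := by
    have := orderOf_pos (s * u)
    omega
  set w := (s * u) ^ k with hw
  have hw1 : w ≠ 1 := pow_ne_one_of_lt_orderOf (by omega) (by omega)
  have hw2 : w * w = 1 := by rw [hw, ← pow_add, ← hk, pow_orderOf_eq_one]
  have hinv : (s * u)⁻¹ = u * s := by
    rw [mul_inv_rev, inv_eq_of_mul_eq_one_right hs2, inv_eq_of_mul_eq_one_right hu2]
  have hsw : s * w = w * s := by
    have h1 : s * w * s⁻¹ = (u * s) ^ k := by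
      rw [hw, ← conj_pow]
      congr 1
      rw [inv_eq_of_mul_eq_one_right hs2, ← mul_assoc s s u, hs2, one_mul]
    have h2 : (u * s) ^ k = w := by
      rw [← hinv, inv_pow, ← hw]
      exact inv_eq_of_mul_eq_one_right hw2
    rw [h2] at h1
    exact (mul_inv_eq_iff_eq_mul.1 h1)
  have hwa : w • a = a := by
    apply fix_only hS (inv_mem_Q hS hs hs2) hs1
    rw [← mul_smul, hsw, mul_smul, hs]
  have huw : u * w = w * u := by
    have h1 : u * w * u⁻¹ = (u * s) ^ k := by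
      rw [hw, ← conj_pow]
      congr 1
      rw [mul_assoc, mul_assoc, mul_inv_cancel, mul_one]
    have h2 : (u * s) ^ k = w := by
      rw [← hinv, inv_pow, ← hw]
      exact inv_eq_of_mul_eq_one_right hw2
    rw [h2] at h1
    exact (mul_inv_eq_iff_eq_mul.1 h1)
  apply hu
  apply fix_only hS (inv_mem_Q hS hwa hw2) hw1
  rw [← mul_smul, ← huw, mul_smul, hwa]

theorem conj_t {u : G} (hu1 : u ≠ 1) (hu2 : u * u = 1) : ∃ g : G, g * u * g⁻¹ = t := by
  by_cases hu : u • a = a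
  · exact conj_of_odd hu2 hS.mul_self (odd_prod hS hu hu1 hu2 (b_ne hS) hS.mul_self)
  · obtain ⟨s, hs, hs1, hs2⟩ := exists_involution hS
    obtain ⟨g, hg⟩ := conj_of_odd hs2 hu2 (odd_prod hS (hS.le hs) hs1 hs2 hu hu2)
    obtain ⟨g', hg'⟩ := conj_of_odd hs2 hS.mul_self (odd_prod hS (hS.le hs) hs1 hs2 (b_ne hS) hS.mul_self)
    exact ⟨g' * g⁻¹, by rw [← hg', ← hg]; group⟩

theorem conj_all {u v : G} (hu1 : u ≠ 1) (hu2 : u * u = 1) (hv1 : v ≠ 1) (hv2 : v * v = 1) :
    ∃ g : G, g * u * g⁻¹ = v := by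
  obtain ⟨g, hg⟩ := conj_t hS hu1 hu2
  obtain ⟨k, hk⟩ := conj_t hS hv1 hv2
  refine ⟨k⁻¹ * g, ?_⟩
  calc k⁻¹ * g * u * (k⁻¹ * g)⁻¹ = k⁻¹ * (g * u * g⁻¹) * k := by group
    _ = k⁻¹ * (k * v * k⁻¹) * k := by rw [hg, hk]
    _ = v := by group

/-- Every involution has exactly one fixed point. -/
theorem unique_fix {u : G} (hu1 : u ≠ 1) (hu2 : u * u = 1) : ∃! c : Ω, u • c = c := by
  obtain ⟨s, hs, hs1, hs2⟩ := exists_involution hS
  obtain ⟨g, hg⟩ := conj_all hS hs1 hs2 hu1 hu2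
  refine ⟨g • a, ?_, fun c hc => ?_⟩
  · change u • g • a = g • a
    rw [← hg, mul_smul, mul_smul, inv_smul_smul, q_smul_a hS hs]
  · have h1 : g⁻¹ • c = a := by
      apply fix_only hS hs hs1
      conv_rhs => rw [← hc, ← hg, mul_smul, mul_smul, inv_smul_smul]
    rw [← h1, smul_inv_smul]

end Cfsg.Agent.RankOne
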