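import Cfsg.Agent.RankOne.Basic

set_option autoImplicit false

namespace Cfsg.Agent.RankOne

open MulAction Cfsg

variable {G Ω : Type*} [Group G] [Finite G] [MulAction G Ω] {a : Ω} {t : G} {Q : Subgroup G}
variable (hS : Cfsg.IsRankOneSetup G Ω a t Q)

local notation "DD" => stabilizer G a ⊓ stabilizer G (t • a)

include hS

/-- `Ω` is `Q` together with one point. -/
theorem card_Ω : Nat.card Ω = Nat.card Q + 1 := by
  haveI := finite_Ω hS
  rw [← Finite.card_option]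
  refine (Nat.card_eq_of_bijective
    (fun o : Option Q => o.elim a (fun q => (q : G) • t • a)) ⟨?_, ?_⟩).symm
  · rintro (_ | ⟨p, hp⟩) (_ | ⟨q, hq⟩) h
    · rfl
    · exact absurd (Eq.symm h) (q_smul_ne hS hq (b_ne hS))
    · exact absurd h (q_smul_ne hS hp (b_ne hS))
    · exact congrArg some (Subtype.ext (q_inj hS hp hq h))
  · intro c
    by_cases hc : c = a
    · exact ⟨none, hc.symm⟩
    · obtain ⟨q, hq, h⟩ := exists_q hS hc
      exact ⟨some ⟨q, hq⟩, h⟩

theorem card_stab : Nat.card (stabilizer G a) = Nat.card Q * Nat.card ↥(DD) := by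
  rw [← Nat.card_prod]
  refine (Nat.card_eq_of_bijective
    (fun p : Q × ↥(DD) => (⟨(p.1 : G) * p.2, mul_mem (hS.le p.1.2) p.2.2.1⟩ : stabilizer G a)) ⟨?_, ?_⟩).symm
  · rintro ⟨⟨p, hp⟩, ⟨d, hd⟩⟩ ⟨⟨q, hq⟩, ⟨e, he⟩⟩ h
    have h' : p * d = q * e := congrArg Subtype.val h
    obtain ⟨h1, h2, -⟩ := form_inj hS hp hq hd he (one_mem Q) (one_mem Q) (by rw [h'])
    subst h1; subst h2; rfl
  · rintro ⟨h, hh⟩
    obtain ⟨q, hq, d, hd, e⟩ := decompose hS hh
    exact ⟨⟨⟨q, hq⟩, ⟨d, hd⟩⟩, Subtype.ext e⟩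

theorem card_G : Nat.card G = Nat.card Q * Nat.card ↥(DD) * (Nat.card Q + 1) := by
  haveI : MulAction.IsPretransitive G Ω :=
    haveI := hS.two_transitive
    MulAction.isPretransitive_of_is_two_pretransitive
  rw [← card_stab hS, ← card_Ω hS, ← MulAction.index_stabilizer_of_transitive G a, Subgroup.card_mul_index]

omit [Finite G] in
theorem mem_K {k : G} : k ∈ invertedBy DD t ↔ k ∈ DD ∧ t * k * t = k⁻¹ := by
  change k ∈ DD ∧ _ ↔ _
  rw [t_inv hS]

theorem mul_K_invol {k : G} (hk : k ∈ invertedBy DD t) : t * k * (t * k) = 1 := by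
  rw [← mul_assoc, ((mem_K hS).1 hk).2, inv_mul_cancel]

/-- The number of involutions of `G_a` is the number of elements of `D` inverted by `t`. -/
theorem card_K_eq :
    Nat.card (invertedBy DD t) = Nat.card (involutionsIn (stabilizer G a : Set G)) := by
  haveI : MulAction.IsPretransitive G Ω :=
    haveI := hS.two_transitive
    MulAction.isPretransitive_of_is_two_pretransitive
  haveI := finite_Ω hS
  choose g hg using fun c => MulAction.exists_smul_eq G a c
  have e1 : Nat.card (Ω × involutionsIn (stabilizer G a : Set G)) =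
      Nat.card {u : G // u ≠ 1 ∧ u * u = 1} := by
    refine Nat.card_eq_of_bijective (fun p => ⟨g p.1 * p.2 * (g p.1)⁻¹, ?_, ?_⟩) ⟨?_, ?_⟩
    · intro h
      exact p.2.2.2.1 (by simpa using h)
    · have := p.2.2.2.2
      calc g p.1 * (p.2 : G) * (g p.1)⁻¹ * (g p.1 * p.2 * (g p.1)⁻¹)
          = g p.1 * ((p.2 : G) * p.2) * (g p.1)⁻¹ := by group
        _ = 1 := by rw [this]; group
    · rintro ⟨c, ⟨s, hs, hs1, hs2⟩⟩ ⟨c', ⟨s', hs', hs1', hs2'⟩⟩ h
      have h' : g c * s * (g c)⁻¹ = g c' * s' * (g c')⁻¹ := congrArg Subtype.val h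
      have fc : ∀ (c : Ω) (s : G), s • a = a → (g c * s * (g c)⁻¹) • c = c := by
        intro c s hs
        conv_lhs => rw [mul_smul, mul_smul]; arg 2; arg 2; arg 2; rw [← hg c]
        rw [inv_smul_smul, hs, hg]
      have hne : g c * s * (g c)⁻¹ ≠ 1 := fun h => hs1 (by simpa using h)
      have hsq : g c * s * (g c)⁻¹ * (g c * s * (g c)⁻¹) = 1 := by
        calc g c * s * (g c)⁻¹ * (g c * s * (g c)⁻¹) = g c * (s * s) * (g c)⁻¹ := by group
          _ = 1 := by rw [hs2]; group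
      have := (unique_fix hS hne hsq).unique (fc c s hs) (by rw [h']; exact fc c' s' hs')
      subst this
      simp only [mul_left_inj, mul_right_inj] at h'
      subst h'
      rfl
    · rintro ⟨u, hu1, hu2⟩
      obtain ⟨c, hc, -⟩ := unique_fix hS hu1 hu2
      refine ⟨⟨c, ⟨(g c)⁻¹ * u * g c, ?_, ?_, ?_⟩⟩, Subtype.ext (by group)⟩
      · change ((g c)⁻¹ * u * g c) • a = a
        rw [mul_smul, mul_smul, hg, hc, inv_smul_eq_iff, hg]
      · intro h
        apply hu1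
        calc u = g c * ((g c)⁻¹ * u * g c) * (g c)⁻¹ := by group
          _ = 1 := by rw [h]; group
      · calc (g c)⁻¹ * u * g c * ((g c)⁻¹ * u * g c) = (g c)⁻¹ * (u * u) * g c := by group
          _ = 1 := by rw [hu2]; group
  have moved : ∀ (q k : G), q ∈ Q → k ∈ invertedBy DD t → (q * (t * k) * q⁻¹) • a = q • t • a := by
    intro q k hq hk
    rw [mul_smul, mul_smul, q_smul_a hS (inv_mem hq), mul_smul, (mem_D.1 hk.1).1]
  have e2 : Nat.card ((involutionsIn (stabilizer G a : Set G)) ⊕ (Q × invertedBy DD t)) =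
      Nat.card {u : G // u ≠ 1 ∧ u * u = 1} := by
    refine Nat.card_eq_of_bijective
      (Sum.elim (fun s => ⟨s, s.2.2⟩) (fun p => ⟨(p.1 : G) * (t * p.2) * (p.1 : G)⁻¹, ?_, ?_⟩)) ⟨?_, ?_⟩
    · intro h
      have := moved _ _ p.1.2 p.2.2
      rw [h, one_smul] at this
      exact q_smul_ne hS p.1.2 (b_ne hS) this.symm
    · calc (p.1 : G) * (t * p.2) * (p.1 : G)⁻¹ * ((p.1 : G) * (t * p.2) * (p.1 : G)⁻¹)
          = (p.1 : G) * (t * p.2 * (t * p.2)) * (p.1 : G)⁻¹ := by group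
        _ = 1 := by rw [mul_K_invol hS p.2.2]; group
    · rintro (⟨s, hs⟩ | ⟨⟨q, hq⟩, ⟨k, hk⟩⟩) (⟨s', hs'⟩ | ⟨⟨q', hq'⟩, ⟨k', hk'⟩⟩) h <;>
        simp only [Sum.elim_inl, Sum.elim_inr, Subtype.mk.injEq] at h
      · subst h; rfl
      · have := moved _ _ hq' hk'
        rw [← h, show s • a = a from hs.1] at this
        exact absurd this.symm (q_smul_ne hS hq' (b_ne hS))
      · have := moved _ _ hq hk
        rw [h, show s' • a = a from hs'.1] at this
        exact absurd this.symm (q_smul_ne hS hq (b_ne hS))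
      · have h1 := moved _ _ hq hk
        rw [h, moved _ _ hq' hk'] at h1
        obtain rfl := q_inj hS hq' hq h1
        simp only [mul_left_inj, mul_right_inj] at h
        subst h
        rfl
    · rintro ⟨u, hu1, hu2⟩
      by_cases hu : u • a = a
      · exact ⟨Sum.inl ⟨u, hu, hu1, hu2⟩, rfl⟩
      obtain ⟨q, hq, hqa⟩ := exists_q hS hu
      have hv : (q⁻¹ * u * q) • a = t • a := by
        rw [mul_smul, mul_smul, q_smul_a hS hq, ← hqa, inv_smul_smul]
      have hv2 : q⁻¹ * u * q * (q⁻¹ * u * q) = 1 := by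
        calc q⁻¹ * u * q * (q⁻¹ * u * q) = q⁻¹ * (u * u) * q := by group
          _ = 1 := by rw [hu2]; group
      have hvb : (q⁻¹ * u * q) • t • a = a := by rw [← hv, ← mul_smul, hv2, one_smul]
      have hK : t * (q⁻¹ * u * q) ∈ invertedBy DD t := by
        refine (mem_K hS).2 ⟨mem_D.2 ⟨?_, ?_⟩, ?_⟩
        · rw [mul_smul, hv, tt_smul hS]
        · rw [mul_smul, hvb]
        · rw [mul_inv_rev, t_inv hS, inv_eq_of_mul_eq_one_right hv2, ← mul_assoc t t, hS.mul_self, one_mul]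
      refine ⟨Sum.inr ⟨⟨q, hq⟩, ⟨_, hK⟩⟩, Subtype.ext ?_⟩
      simp only [Sum.elim_inr]
      rw [← mul_assoc t t, hS.mul_self, one_mul]
      group
  rw [Nat.card_prod, card_Ω hS] at e1
  rw [Nat.card_sum, Nat.card_prod] at e2
  have hQ : 0 < Nat.card Q := Nat.card_pos
  have : Nat.card Q * Nat.card (invertedBy DD t) =
      Nat.card Q * Nat.card (involutionsIn (stabilizer G a : Set G)) := by
    rw [add_mul, one_mul] at e1
    omega
  exact mul_left_cancel₀ (by omega) this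

/-- For an involution of `G_a`, the canonical form of `t s t` is `f⁻¹ h t f` with `h` inverted by `t`. -/
theorem invol_form {s : G} (hs : s ∈ involutionsIn (stabilizer G a : Set G)) :
    ∃ h ∈ invertedBy DD t, ∃ f ∈ Q, t * s * t = f⁻¹ * h * t * f := by
  have hsQ := inv_mem_Q hS hs.1 hs.2.2
  obtain ⟨g, hg, h, hh, f, hf, e⟩ := form_exists hS (t_q_t_not_mem hS hsQ hs.2.1)
  obtain ⟨h1, h2, -⟩ := form_inv hS hg hh hf e hg hh hf (by rw [inv_eq_of_mul_eq_one_right hs.2.2]; exact e)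
  refine ⟨h, (mem_K hS).2 ⟨hh, ?_⟩, f, hf, h1 ▸ e⟩
  calc t * h * t = t * (t * h⁻¹ * t) * t := by rw [← h2]
    _ = h⁻¹ := by simp only [mul_assoc, ← mul_assoc t t, hS.mul_self, one_mul, mul_one]

theorem sqrt_K {h : G} (hh : h ∈ invertedBy DD t) :
    ∃ m ∈ invertedBy DD t, m * m = h := by
  refine ⟨h ^ ((Nat.card ↥(DD) + 1) / 2), (mem_K hS).2 ⟨pow_mem hh.1 _, ?_⟩, ?_⟩
  · rw [← inv_pow, ← ((mem_K hS).1 hh).2]
    conv_rhs => rw [show t * h * t = t * h * t⁻¹ by rw [t_inv hS], conj_pow, t_inv hS]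
  · rw [← (Commute.refl h).mul_pow]
    exact sq_pow_half hS.odd_card hh.1

theorem conj_K_mem {s k : G} (hs : s ∈ involutionsIn (stabilizer G a : Set G))
    (hk : k ∈ DD) : k⁻¹ * s * k ∈ involutionsIn (stabilizer G a : Set G) := by
  refine ⟨mul_mem (mul_mem (inv_mem hk.1) hs.1) hk.1, fun h => hs.2.1 ?_, ?_⟩
  · calc s = k * (k⁻¹ * s * k) * k⁻¹ := by group
      _ = 1 := by rw [h]; group
  · calc k⁻¹ * s * k * (k⁻¹ * s * k) = k⁻¹ * (s * s) * k := by group
      _ = 1 := by rw [hs.2.2]; group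

theorem K_inj {s k k' : G} (hs : s ∈ involutionsIn (stabilizer G a : Set G))
    (hk : k ∈ invertedBy DD t) (hk' : k' ∈ invertedBy DD t)
    (e : k⁻¹ * s * k = k'⁻¹ * s * k') : k = k' := by
  obtain ⟨h, hh, f, hf, eq⟩ := invol_form hS hs
  have hc : k⁻¹ * s * k ∈ involutionsIn (stabilizer G a : Set G) := conj_K_mem hS hs hk.1
  obtain ⟨h₁, hh₁, f₁, hf₁, eq₁⟩ := invol_form hS hc
  have A := (form_conj hS (inv_mem hf) hh.1 hf hk.1 eq (inv_mem hf₁) hh₁.1 hf₁ eq₁).2.1
  have B := (form_conj hS (inv_mem hf) hh.1 hf hk'.1 eq (inv_mem hf₁) hh₁.1 hf₁ (e ▸ eq₁)).2.1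
  rw [((mem_K hS).1 hk).2, inv_inv] at A
  rw [((mem_K hS).1 hk').2, inv_inv, A] at B
  obtain ⟨m, hm, rfl⟩ := sqrt_K hS hh
  have : m * k * m * (m * k * m) = m * k' * m * (m * k' * m) := by
    calc m * k * m * (m * k * m) = m * (k * (m * m) * k) * m := by group
      _ = m * (k' * (m * m) * k') * m := by rw [B]
      _ = _ := by group
  have := eq_of_mul_self_eq hS.odd_card (mul_mem (mul_mem hm.1 hk.1) hm.1) (mul_mem (mul_mem hm.1 hk'.1) hm.1) this
  exact mul_left_cancel (mul_right_cancel this)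

theorem K_trans {s s' : G} (hs : s ∈ involutionsIn (stabilizer G a : Set G))
    (hs' : s' ∈ involutionsIn (stabilizer G a : Set G)) :
    ∃ k ∈ invertedBy DD t, k⁻¹ * s * k = s' := by
  have hinj : Function.Injective (fun k : invertedBy DD t =>
      (⟨(k : G)⁻¹ * s * k, conj_K_mem hS hs k.2.1⟩ : involutionsIn (stabilizer G a : Set G))) :=
    fun k k' h => Subtype.ext (K_inj hS hs k.2 k'.2 (congrArg Subtype.val h))
  obtain ⟨k, hk⟩ := ((Nat.bijective_iff_injective_and_card _).2 ⟨hinj, card_K_eq hS⟩).2 ⟨s', hs'⟩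
  exact ⟨k, k.2, congrArg Subtype.val hk⟩

theorem pair_unique {s r s' r' : G} (hs : s ∈ involutionsIn (stabilizer G a : Set G)) (hr : r ∈ Q)
    (e : t * s * t = r⁻¹ * t * r) (hs' : s' ∈ involutionsIn (stabilizer G a : Set G)) (hr' : r' ∈ Q)
    (e' : t * s' * t = r'⁻¹ * t * r') : s = s' ∧ r = r' := by
  obtain ⟨k, hk, rfl⟩ := K_trans hS hs hs'
  have e0 : t * s * t = r⁻¹ * 1 * t * r := by rw [mul_one]; exact e
  have e0' : t * (k⁻¹ * s * k) * t = r'⁻¹ * 1 * t * r' := by rw [mul_one]; exact e'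
  have h3 := form_conj hS (inv_mem hr) (one_mem DD) hr hk.1 e0 (inv_mem hr')
    (one_mem DD) hr' e0'
  have h4 := h3.2.1
  rw [((mem_K hS).1 hk).2, inv_inv, mul_one] at h4
  have hk1 : k = 1 := card_D_odd_involution hS hk.1 h4.symm
  subst hk1
  refine ⟨by group, ?_⟩
  have := h3.2.2
  simp only [mul_one, hS.mul_self, inv_one, one_mul] at this
  exact this.symm

theorem pair_exists : ∃ s ∈ involutionsIn (stabilizer G a : Set G), ∃ r ∈ Q, t * s * t = r⁻¹ * t * r := by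
  obtain ⟨s0, hs0, hs01, hs02⟩ := exists_involution hS
  have hs : s0 ∈ involutionsIn (stabilizer G a : Set G) := ⟨hS.le hs0, hs01, hs02⟩
  obtain ⟨h, hh, f, hf, eq⟩ := invol_form hS hs
  obtain ⟨m, hm, rfl⟩ := sqrt_K hS hh
  have hm' : m⁻¹ ∈ DD := inv_mem hm.1
  have hc := conj_K_mem hS hs hm'
  obtain ⟨h₁, hh₁, f₁, hf₁, eq₁⟩ := invol_form hS hc
  have A := (form_conj hS (inv_mem hf) hh.1 hf hm' eq (inv_mem hf₁) hh₁.1 hf₁ eq₁).2.1
  have e : t * m⁻¹ * t = m := by
    have := congrArg (·⁻¹) ((mem_K hS).1 hm).2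
    simpa [t_inv hS, mul_assoc] using this
  rw [e, ← mul_assoc, inv_mul_cancel, one_mul, mul_inv_cancel] at A
  subst A
  exact ⟨_, hc, f₁, hf₁, by simpa using eq₁⟩

end Cfsg.Agent.RankOne
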